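import Cfsg.Agent.Lib.Helper13.Asch.Defs

set_option autoImplicit false

namespace Cfsg.Agent.Lib.Helper58.Asch

open Cfsg Cfsg.Geo Matrix Cfsg.Agent.Lib.Helper13.Asch
open scoped Kronecker MatrixGroups

variable {ι : Type} [Fintype ι] [DecidableEq ι] {F : Type*} [Field F]

theorem conj_mem_env {H N : Subgroup (GL ι F)} (h : Nrm H N) {g : GL ι F} (hg : g ∈ H)
    {k : Matrix ι ι F} (hk : k ∈ env N) :
    (g : Matrix ι ι F) * k * ((g⁻¹ : GL ι F) : Matrix ι ι F) ∈ env N := by
  have h1 : (g : Matrix ι ι F) * ((g⁻¹ : GL ι F) : Matrix ι ι F) = 1 := by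
    rw [← Units.val_mul, mul_inv_cancel, Units.val_one]
  have h2 : ((g⁻¹ : GL ι F) : Matrix ι ι F) * (g : Matrix ι ι F) = 1 := by
    rw [← Units.val_mul, inv_mul_cancel, Units.val_one]
  unfold env at hk ⊢
  induction hk using Algebra.adjoin_induction with
  | mem x hx =>
    obtain ⟨y, hy, rfl⟩ := hx
    apply Algebra.subset_adjoin
    exact ⟨g * y * g⁻¹, h g hg y hy, by simp⟩
  | algebraMap r =>
    have : (g : Matrix ι ι F) * algebraMap F (Matrix ι ι F) r * ((g⁻¹ : GL ι F) : Matrix ι ι F)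
        = algebraMap F (Matrix ι ι F) r := by
      rw [← Algebra.commutes, mul_assoc, h1, mul_one]
    rw [this]
    exact Subalgebra.algebraMap_mem _ r
  | add x y _ _ hx hy =>
    rw [mul_add, add_mul]
    exact add_mem hx hy
  | mul x y _ _ hx hy =>
    have : (g : Matrix ι ι F) * (x * y) * ((g⁻¹ : GL ι F) : Matrix ι ι F)
        = ((g : Matrix ι ι F) * x * ((g⁻¹ : GL ι F) : Matrix ι ι F)) *
          ((g : Matrix ι ι F) * y * ((g⁻¹ : GL ι F) : Matrix ι ι F)) := by
      calc (g : Matrix ι ι F) * (x * y) * ((g⁻¹ : GL ι F) : Matrix ι ι F)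
          = (g : Matrix ι ι F) * x * 1 * y * ((g⁻¹ : GL ι F) : Matrix ι ι F) := by
            simp only [mul_one, mul_assoc]
        _ = _ := by rw [← h2]; simp only [mul_assoc]
    rw [this]
    exact mul_mem hx hy

/-- L0a -/
theorem nrm_env {H N : Subgroup (GL ι F)} (h : Nrm H N) : H ≤ subalgebraNormalizer (env N) := by
  intro g hg k
  constructor
  · intro hk
    exact conj_mem_env h hg hk
  · intro hk
    have h3 := conj_mem_env h (inv_mem hg) hk
    rw [inv_inv] at h3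
    have h2 : ((g⁻¹ : GL ι F) : Matrix ι ι F) * (g : Matrix ι ι F) = 1 := by
      rw [← Units.val_mul, inv_mul_cancel, Units.val_one]
    have h4 : ((g⁻¹ : GL ι F) : Matrix ι ι F) *
        ((g : Matrix ι ι F) * k * ((g⁻¹ : GL ι F) : Matrix ι ι F)) * (g : Matrix ι ι F) = k := by
      calc _ = (((g⁻¹ : GL ι F) : Matrix ι ι F) * (g : Matrix ι ι F)) * k *
            (((g⁻¹ : GL ι F) : Matrix ι ι F) * (g : Matrix ι ι F)) := by simp only [mul_assoc]
        _ = k := by rw [h2, one_mul, mul_one]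
    rwa [h4] at h3

/-- L0d -/
theorem le_subspaceStabilizer {H : Subgroup (GL ι F)} {W : Submodule F (ι → F)}
    (h : ∀ s ∈ matrixSet H, W.map (Matrix.toLin' s) ≤ W) : H ≤ subspaceStabilizer W := by
  intro g hg v
  have key : ∀ g ∈ H, ∀ v ∈ W, (g : Matrix ι ι F) *ᵥ v ∈ W := by
    intro g hg v hv
    have := h (g : Matrix ι ι F) ⟨g, hg, rfl⟩ (Submodule.mem_map_of_mem hv)
    simpa using this
  constructor
  · intro hv
    exact key g hg v hv
  · intro hv
    have h1 := key g⁻¹ (inv_mem hg) _ hv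
    have h2 : ((g⁻¹ : GL ι F) : Matrix ι ι F) *ᵥ (glToMat ι F g *ᵥ v) = v := by
      show ((g⁻¹ : GL ι F) : Matrix ι ι F) *ᵥ ((g : Matrix ι ι F) *ᵥ v) = v
      rw [Matrix.mulVec_mulVec, ← Units.val_mul, inv_mul_cancel, Units.val_one, Matrix.one_mulVec]
    rw [h2] at h1
    exact h1

end Cfsg.Agent.Lib.Helper58.Asch
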