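import Cfsg.Agent.Lib.Helper13.Asch.Defs

set_option autoImplicit false

namespace Cfsg.Agent.Lib.Helper58.Asch

open Cfsg Cfsg.Geo Matrix Cfsg.Agent.Lib.Helper13.Asch
open scoped Kronecker MatrixGroups

variable {ι : Type} [Fintype ι] [DecidableEq ι] {F : Type*} [Field F]

/-- a finite extension field of degree `> 1` has a subfield of prime degree `r`, the set of
fixed points of `x ↦ x ^ (q ^ r)` -/
theorem exists_prime_subfield [Fintype F] (L : Type*) [Field L] [Finite L] [Algebra F L]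
    (hd : ∃ x : L, ∀ c : F, x ≠ algebraMap F L c) :
    ∃ (r : ℕ) (E : IntermediateField F L), r.Prime ∧ Module.finrank F E = r ∧
      ∀ x : L, x ∈ E ↔ x ^ (Fintype.card F ^ r) = x := by
  have hfd : FiniteDimensional F L := Module.Finite.of_finite
  set d := Module.finrank F L with hdd
  have hd0 : 0 < d := Module.finrank_pos
  have hd1 : d ≠ 1 := by
    intro h1
    obtain ⟨x, hx⟩ := hd
    have h2 : (⊥ : Subalgebra F L) = ⊤ := Subalgebra.bot_eq_top_of_finrank_eq_one h1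
    have h3 : x ∈ (⊥ : Subalgebra F L) := by rw [h2]; trivial
    obtain ⟨c, hc⟩ := Algebra.mem_bot.1 h3
    exact hx c hc.symm
  set r := d.minFac with hr
  have hrp : r.Prime := Nat.minFac_prime hd1
  have hrd : r ∣ d := Nat.minFac_dvd d
  set φ := FiniteField.frobeniusAlgEquivOfAlgebraic F L with hφ
  have hord : orderOf φ = d := FiniteField.orderOf_frobeniusAlgEquivOfAlgebraic F L
  have hord' : orderOf (φ ^ r) = d / r := by
    rw [orderOf_pow_of_dvd hrp.ne_zero (hord ▸ hrd), hord]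
  set Hs := Subgroup.zpowers (φ ^ r) with hHs
  have hcard : Nat.card Hs = d / r := by rw [Nat.card_zpowers, hord']
  have hfix : Module.finrank (IntermediateField.fixedField Hs) L = d / r := by
    rw [IntermediateField.finrank_fixedField_eq_card, hcard]
  have hmul := Module.finrank_mul_finrank F (IntermediateField.fixedField Hs) L
  refine ⟨r, IntermediateField.fixedField Hs, hrp, ?_, ?_⟩
  · rw [hfix] at hmul
    obtain ⟨e, he⟩ := hrd
    have he0 : 0 < e := by
      rcases Nat.eq_zero_or_pos e with h | h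
      · rw [h, mul_zero] at he; omega
      · exact h
    rw [← hdd, he, Nat.mul_div_cancel_left _ hrp.pos] at hmul
    exact Nat.eq_of_mul_eq_mul_right he0 hmul
  · intro x
    have hpow : (φ ^ r) x = x ^ (Fintype.card F ^ r) := by
      rw [AlgEquiv.coe_pow, hφ, FiniteField.coe_frobeniusAlgEquivOfAlgebraic_iterate]
    rw [IntermediateField.mem_fixedField_iff]
    constructor
    · intro h
      rw [← hpow]
      exact h _ (Subgroup.mem_zpowers _)
    · intro h f hf
      have h1 : φ ^ r ∈ MulAction.stabilizer Gal(L/F) x := by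
        rw [MulAction.mem_stabilizer_iff, AlgEquiv.smul_def, hpow, h]
      have h2 : Hs ≤ MulAction.stabilizer Gal(L/F) x := by
        rw [hHs, Subgroup.zpowers_le]; exact h1
      have h3 := h2 hf
      rwa [MulAction.mem_stabilizer_iff, AlgEquiv.smul_def] at h3

theorem exists_prime_subfield_matrix [Fintype F] [Nontrivial (Matrix ι ι F)]
    (L : Type*) [Field L] [Finite L] [Algebra F L]
    (ψ : L →ₐ[F] Matrix ι ι F) (hd : ∃ x : L, ∀ c : F, x ≠ algebraMap F L c) :
    ∃ (r : ℕ) (K' : Subalgebra F (Matrix ι ι F)), r.Prime ∧ IsFieldSubalgebra r K' ∧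
      ∀ k, k ∈ K' ↔ (∃ x, ψ x = k) ∧ k ^ (Fintype.card F ^ r) = k := by
  obtain ⟨r, E, hr, hfin, hmem⟩ := exists_prime_subfield L hd
  have hinj : Function.Injective ψ := (ψ : L →+* Matrix ι ι F).injective
  refine ⟨r, E.toSubalgebra.map ψ, hr, ⟨?_, ?_, ?_⟩, ?_⟩
  · rintro _ ⟨x, -, rfl⟩ _ ⟨y, -, rfl⟩
    show ψ x * ψ y = ψ y * ψ x
    rw [← map_mul, ← map_mul, mul_comm]
  · rintro _ ⟨x, hx, rfl⟩ hx0
    have hx0' : x ≠ 0 := by
      rintro rfl
      exact hx0 (map_zero ψ)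
    refine ⟨ψ x⁻¹, ⟨x⁻¹, E.inv_mem hx, rfl⟩, ?_⟩
    show ψ x * ψ x⁻¹ = 1
    rw [← map_mul, mul_inv_cancel₀ hx0', map_one]
  · rw [← hfin]
    have e := Submodule.equivMapOfInjective ψ.toLinearMap hinj (Subalgebra.toSubmodule E.toSubalgebra)
    exact e.symm.finrank_eq
  · intro k
    constructor
    · rintro ⟨x, hx, rfl⟩
      refine ⟨⟨x, rfl⟩, ?_⟩
      show ψ x ^ _ = ψ x
      rw [← map_pow, (hmem x).1 hx]
    · rintro ⟨⟨x, rfl⟩, hk⟩
      refine ⟨x, (hmem x).2 (hinj ?_), rfl⟩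
      rw [map_pow, hk]

/-- L3 -/
theorem prime_subfield [Fintype F] (H : Subgroup (GL ι F)) (K : Subalgebra F (Matrix ι ι F))
    (hK : H ≤ subalgebraNormalizer K) (hcomm : ∀ x ∈ K, ∀ y ∈ K, x * y = y * x)
    (hinv : ∀ x ∈ K, x ≠ 0 → ∃ y ∈ K, x * y = 1) (hne : ∃ x ∈ K, ∀ c : F, x ≠ c • 1) :
    ∃ (r : ℕ) (K' : Subalgebra F (Matrix ι ι F)), r.Prime ∧ IsFieldSubalgebra r K' ∧
      H ≤ subalgebraNormalizer K' := by
  obtain ⟨x₀, hx₀K, hx₀⟩ := hne
  have hnt : Nontrivial (Matrix ι ι F) := ⟨x₀, 0, by simpa using hx₀ 0⟩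
  have hfield : IsField ↥K :=
    { exists_pair_ne := ⟨0, 1, fun h => zero_ne_one (congrArg Subtype.val h)⟩
      mul_comm := fun x y => Subtype.ext (hcomm x.1 x.2 y.1 y.2)
      mul_inv_cancel := by
        intro a ha
        obtain ⟨y, hy, hay⟩ := hinv a.1 a.2 (fun h => ha (Subtype.ext h))
        exact ⟨⟨y, hy⟩, Subtype.ext hay⟩ }
  let instF : Field ↥K := hfield.toField
  let instA : Algebra F ↥K := K.algebra
  have hfinite : Finite ↥K := inferInstance
  let ψ : ↥K →ₐ[F] Matrix ι ι F := K.val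
  obtain ⟨r, K', hr, hK', hmem⟩ := exists_prime_subfield_matrix (↥K) ψ
    ⟨⟨x₀, hx₀K⟩, fun c h => hx₀ c (by
      have := congrArg Subtype.val h
      rw [Algebra.smul_def, mul_one]
      exact this)⟩
  have hmem' : ∀ k, k ∈ K' ↔ k ∈ K ∧ k ^ (Fintype.card F ^ r) = k := by
    intro k
    rw [hmem]
    constructor
    · rintro ⟨⟨x, rfl⟩, h⟩
      exact ⟨x.2, h⟩
    · rintro ⟨hk, h⟩
      exact ⟨⟨⟨k, hk⟩, rfl⟩, h⟩
  refine ⟨r, K', hr, hK', ?_⟩
  intro g hg k
  have h1 : (g : Matrix ι ι F) * ((g⁻¹ : GL ι F) : Matrix ι ι F) = 1 := by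
    rw [← Units.val_mul, mul_inv_cancel, Units.val_one]
  have h2 : ((g⁻¹ : GL ι F) : Matrix ι ι F) * (g : Matrix ι ι F) = 1 := by
    rw [← Units.val_mul, inv_mul_cancel, Units.val_one]
  have hpow : ∀ n : ℕ, ((g : Matrix ι ι F) * k * ((g⁻¹ : GL ι F) : Matrix ι ι F)) ^ n =
      (g : Matrix ι ι F) * k ^ n * ((g⁻¹ : GL ι F) : Matrix ι ι F) := by
    intro n
    induction n with
    | zero => simp
    | succ n ih =>
      rw [pow_succ, ih, pow_succ]
      calc _ = (g : Matrix ι ι F) * k ^ n * (((g⁻¹ : GL ι F) : Matrix ι ι F) * (g : Matrix ι ι F)) * k *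
            ((g⁻¹ : GL ι F) : Matrix ι ι F) := by simp only [mul_assoc]
        _ = _ := by rw [h2, mul_one]; simp only [mul_assoc]
  rw [hmem', hmem', hpow, ← hK hg k]
  refine and_congr_right ?_
  intro _
  constructor
  · intro h
    rw [h]
  · intro h
    have h3 := congrArg (fun M => ((g⁻¹ : GL ι F) : Matrix ι ι F) * M * (g : Matrix ι ι F)) h
    have h4 : ∀ M : Matrix ι ι F, ((g⁻¹ : GL ι F) : Matrix ι ι F) *
        ((g : Matrix ι ι F) * M * ((g⁻¹ : GL ι F) : Matrix ι ι F)) * (g : Matrix ι ι F) = M := by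
      intro M
      calc _ = (((g⁻¹ : GL ι F) : Matrix ι ι F) * (g : Matrix ι ι F)) * M *
            (((g⁻¹ : GL ι F) : Matrix ι ι F) * (g : Matrix ι ι F)) := by simp only [mul_assoc]
        _ = M := by rw [h2, one_mul, mul_one]
    rwa [h4, h4] at h3

end Cfsg.Agent.Lib.Helper58.Asch
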