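import Cfsg.Agent.Lib.Helper13.Asch.Defs

set_option autoImplicit false

namespace Cfsg.Agent.Lib.Helper58.Asch

open Cfsg Cfsg.Geo Matrix Cfsg.Agent.Lib.Helper13.Asch
open scoped Kronecker MatrixGroups

variable {ι : Type} [Fintype ι] [DecidableEq ι] {F : Type*} [Field F]

/-- summing against a column of `stdT i X` -/
theorem sum_stdT_col {m t : ℕ} (i : Fin t) (X : Matrix (Fin m) (Fin m) F) (a : Fin t → Fin m)
    (g : (Fin t → Fin m) → F) :
    ∑ b, stdT i X b a * g b = ∑ k, X k (a i) * g (Function.update a i k) := by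
  rw [← Finset.sum_fiberwise Finset.univ (fun b : Fin t → Fin m => b i)]
  refine Finset.sum_congr rfl ?_
  intro k _
  rw [Finset.sum_eq_single (Function.update a i k)]
  · have : ∀ j, j ≠ i → Function.update a i k j = a j := fun j hj => Function.update_of_ne hj _ _
    have h2 : stdT i X (Function.update a i k) a = X k (a i) := by
      unfold stdT
      rw [if_pos this, Function.update_self]
    rw [h2]
  · intro b hb hne
    have hbi : b i = k := (Finset.mem_filter.1 hb).2
    have : ¬ ∀ j, j ≠ i → b j = a j := by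
      intro h
      apply hne
      funext j
      by_cases hj : j = i
      · subst hj; simp [hbi]
      · rw [Function.update_of_ne hj]; exact h j hj
    simp [stdT, this]
  · intro h
    exact absurd (Finset.mem_filter.2 ⟨Finset.mem_univ _, by simp⟩) h

/-- the standard alternating `2 × 2` matrix -/
def J2 (F : Type*) [Field F] : Matrix (Fin 2) (Fin 2) F := !![0, 1; -1, 0]

/-- its tensor power -/
def Jt (F : Type*) [Field F] (t : ℕ) : Matrix (Fin t → Fin 2) (Fin t → Fin 2) F :=
  fun a b => ∏ i, J2 F (a i) (b i)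

theorem J2_swap (u v : Fin 2) : J2 F v u = -1 * J2 F u v := by
  fin_cases u <;> fin_cases v <;> simp [J2]

theorem J2_mul_J2 (u v : Fin 2) : ∑ k, J2 F u k * J2 F k v = -1 * (if u = v then 1 else 0) := by
  fin_cases u <;> fin_cases v <;> simp [J2, Fin.sum_univ_two]

theorem Jt_update {t : ℕ} (i : Fin t) (a d : Fin t → Fin 2) (k l : Fin 2) :
    Jt F t (Function.update a i k) (Function.update d i l) =
      J2 F k l * ∏ j ∈ Finset.univ.erase i, J2 F (a j) (d j) := by
  unfold Jt
  rw [← Finset.mul_prod_erase Finset.univ _ (Finset.mem_univ i)]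
  congr 1
  · simp
  · refine Finset.prod_congr rfl ?_
    intro j hj
    have hj' : j ≠ i := Finset.ne_of_mem_erase hj
    rw [Function.update_of_ne hj', Function.update_of_ne hj']

theorem Jt_eq {t : ℕ} (i : Fin t) (a d : Fin t → Fin 2) :
    Jt F t a d = J2 F (a i) (d i) * ∏ j ∈ Finset.univ.erase i, J2 F (a j) (d j) := by
  unfold Jt
  exact (Finset.mul_prod_erase Finset.univ (fun j => J2 F (a j) (d j)) (Finset.mem_univ i)).symm

theorem J2_conj (X : Matrix (Fin 2) (Fin 2) F) (u v : Fin 2) :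
    ∑ l, X l v * ∑ k, X k u * J2 F k l = X.det * J2 F u v := by
  rw [Matrix.det_fin_two]
  fin_cases u <;> fin_cases v <;> simp [J2, Fin.sum_univ_two] <;> ring

theorem Jt_mul_Jt (t : ℕ) : Jt F t * Jt F t = (-1 : F) ^ t • (1 : Matrix _ _ F) := by
  ext a c
  rw [Matrix.mul_apply]
  have h1 : ∀ b : Fin t → Fin 2, Jt F t a b * Jt F t b c = ∏ i, J2 F (a i) (b i) * J2 F (b i) (c i) := by
    intro b
    unfold Jt
    rw [Finset.prod_mul_distrib]
  simp_rw [h1]
  rw [← Fintype.prod_sum (fun i k => J2 F (a i) k * J2 F k (c i))]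
  simp_rw [J2_mul_J2]
  rw [Finset.prod_mul_distrib, Finset.prod_const, Finset.card_univ, Fintype.card_fin]
  rw [Matrix.smul_apply, smul_eq_mul, Matrix.one_apply]
  congr 1
  by_cases hac : a = c
  · subst hac; simp
  · rw [if_neg hac]
    obtain ⟨i, hi⟩ := Function.ne_iff.1 hac
    exact Finset.prod_eq_zero (Finset.mem_univ i) (by simp [hi])

/-- L15 -/
theorem tensor_two_gram (t : ℕ) :
    ∃ J : Matrix (Fin t → Fin 2) (Fin t → Fin 2) F, IsUnit J.det ∧ Jᵀ = (-1 : F) ^ t • J ∧
      (0 < t → ∀ a, J a a = 0) ∧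
      ∀ (i : Fin t) (X : Matrix (Fin 2) (Fin 2) F), (stdT i X)ᵀ * J * stdT i X = X.det • J := by
  refine ⟨Jt F t, ?_, ?_, ?_, ?_⟩
  · rw [← Matrix.isUnit_iff_isUnit_det]
    have h : Jt F t * ((-1 : F) ^ t • Jt F t) = 1 := by
      rw [Matrix.mul_smul, Jt_mul_Jt, smul_smul, ← mul_pow]
      simp
    exact IsUnit.of_mul_eq_one _ h
  · ext a b
    rw [Matrix.transpose_apply, Matrix.smul_apply, smul_eq_mul]
    unfold Jt
    simp_rw [J2_swap (F := F) (a _) (b _)]
    rw [Finset.prod_mul_distrib, Finset.prod_const, Finset.card_univ, Fintype.card_fin]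
  · intro ht a
    unfold Jt
    refine Finset.prod_eq_zero (Finset.mem_univ (⟨0, ht⟩ : Fin t)) ?_
    generalize a ⟨0, ht⟩ = u
    fin_cases u <;> simp [J2]
  · intro i X
    ext a d
    rw [Matrix.mul_apply]
    simp_rw [Matrix.mul_apply, Matrix.transpose_apply]
    have h1 : ∀ c, (∑ b, stdT i X b a * Jt F t b c) * stdT i X c d =
        stdT i X c d * (∑ b, stdT i X b a * Jt F t b c) := fun c => mul_comm _ _
    simp_rw [h1]
    rw [sum_stdT_col]
    simp_rw [sum_stdT_col, Jt_update]
    rw [Matrix.smul_apply, smul_eq_mul, Jt_eq i a d, ← mul_assoc, ← J2_conj]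
    rw [Finset.sum_mul]
    refine Finset.sum_congr rfl ?_
    intro l _
    rw [mul_assoc, Finset.sum_mul]
    congr 1
    refine Finset.sum_congr rfl ?_
    intro k _
    ring

end Cfsg.Agent.Lib.Helper58.Asch
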