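import Cfsg.Agent.Lib.Helper13.Asch.Defs
import Cfsg.Agent.Lib.Helper96.Asch.L0c

set_option autoImplicit false

namespace Cfsg.Agent.Lib.Helper58.Asch

open Cfsg Cfsg.Geo Matrix Cfsg.Agent.Lib.Helper13.Asch
open scoped Kronecker MatrixGroups

variable {ι : Type} [Fintype ι] [DecidableEq ι] {F : Type*} [Field F]

open Polynomial in
/-- an eigenvector of `x` inside an `x`-stable class of vectors -/
theorem exists_eigenvector_of_prod (x : Matrix ι ι F) (P : (ι → F) → Prop)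
    (hP : ∀ (w : ι → F) (μ : F), P w → P (x *ᵥ w - μ • w)) (S : Finset F) :
    ∀ v : ι → F, v ≠ 0 → P v → (aeval x (∏ μ ∈ S, (X - C μ))) *ᵥ v = 0 →
      ∃ w, w ≠ 0 ∧ P w ∧ ∃ μ : F, x *ᵥ w = μ • w := by
  classical
  induction S using Finset.induction_on with
  | empty =>
    intro v hv _ h
    simp at h
    exact absurd h hv
  | insert μ S hμ ih =>
    intro v hv hPv h
    rw [Finset.prod_insert hμ, mul_comm, map_mul, ← Matrix.mulVec_mulVec] at h
    have h1 : (aeval x (X - C μ)) *ᵥ v = x *ᵥ v - μ • v := by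
      rw [map_sub, aeval_X, aeval_C, Matrix.sub_mulVec, Algebra.algebraMap_eq_smul_one,
        Matrix.smul_mulVec, Matrix.one_mulVec]
    rw [h1] at h
    by_cases h0 : x *ᵥ v - μ • v = 0
    · exact ⟨v, hv, hPv, μ, sub_eq_zero.1 h0⟩
    · exact ih _ h0 (hP v μ hPv) h

open Polynomial in
theorem exists_eigenvector_of_pow (x : Matrix ι ι F) (P : (ι → F) → Prop)
    (hP : ∀ (w : ι → F) (μ : F), P w → P (x *ᵥ w - μ • w)) {z : ℕ} (hz0 : 0 < z) {ζ : F}
    (hζ : IsPrimitiveRoot ζ z) (hx : x ^ z = 1) (v : ι → F) (hv : v ≠ 0) (hPv : P v) :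
    ∃ w, w ≠ 0 ∧ P w ∧ ∃ μ : F, x *ᵥ w = μ • w := by
  refine exists_eigenvector_of_prod x P hP (nthRootsFinset z (1 : F)) v hv hPv ?_
  rw [← X_pow_sub_one_eq_prod hz0 hζ]
  simp [hx]

/-- a common eigenvector of finitely many commuting matrices of exponent `z` -/
theorem exists_common_eigenvector [Nonempty ι] {z : ℕ} (hz0 : 0 < z) {ζ : F}
    (hζ : IsPrimitiveRoot ζ z) (S : Finset (Matrix ι ι F)) :
    (∀ x ∈ S, ∀ y ∈ S, x * y = y * x) → (∀ x ∈ S, x ^ z = 1) →
      ∃ v : ι → F, v ≠ 0 ∧ ∀ x ∈ S, ∃ μ : F, x *ᵥ v = μ • v := by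
  classical
  induction S using Finset.induction_on with
  | empty =>
    intro _ _
    obtain ⟨v, hv⟩ := exists_ne (0 : ι → F)
    exact ⟨v, hv, by simp⟩
  | insert x S hx ih =>
    intro hc hz
    obtain ⟨v, hv, hev⟩ := ih
      (fun a ha b hb => hc a (Finset.mem_insert_of_mem ha) b (Finset.mem_insert_of_mem hb))
      (fun a ha => hz a (Finset.mem_insert_of_mem ha))
    choose! μ hμ using hev
    obtain ⟨w, hw, hPw, ν, hν⟩ := exists_eigenvector_of_pow x
      (fun w => ∀ y ∈ S, y *ᵥ w = μ y • w) (by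
        intro w ν hw y hy
        have hxy : y * x = x * y :=
          hc y (Finset.mem_insert_of_mem hy) x (Finset.mem_insert_self _ _)
        rw [Matrix.mulVec_sub, Matrix.mulVec_mulVec, hxy, ← Matrix.mulVec_mulVec, hw y hy,
          Matrix.mulVec_smul, Matrix.mulVec_smul, hw y hy, smul_sub, smul_comm])
      hz0 hζ (hz x (Finset.mem_insert_self _ _)) v hv hμ
    refine ⟨w, hw, ?_⟩
    intro y hy
    rcases Finset.mem_insert.1 hy with rfl | hy
    · exact ⟨ν, hν⟩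
    · exact ⟨μ y, hPw y hy⟩

/-- a maximal abelian subgroup is self-centralising -/
theorem exists_max_abelian {G : Type*} [Group G] [Finite G] (R : Subgroup G) :
    ∃ E : Subgroup G, E ≤ R ∧ (∀ a ∈ E, ∀ b ∈ E, a * b = b * a) ∧
      ∀ u ∈ R, (∀ e ∈ E, u * e = e * u) → u ∈ E := by
  obtain ⟨E, -, hmax⟩ := (Set.toFinite {A : Subgroup G | A ≤ R ∧ A ≤ Subgroup.centralizer (A : Set G)}).exists_le_maximal
    (a := ⊥) ⟨bot_le, bot_le⟩
  obtain ⟨hER, hEc⟩ := hmax.prop
  refine ⟨E, hER, ?_, ?_⟩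
  · intro a ha b hb
    exact (Subgroup.mem_centralizer_iff.1 (hEc ha) b hb).symm
  · intro u hu hue
    have hZE : Subgroup.zpowers u ≤ Subgroup.centralizer (E : Set G) := by
      rw [Subgroup.zpowers_le, Subgroup.mem_centralizer_iff]
      intro e he
      exact (hue e he).symm
    have hZZ : Subgroup.zpowers u ≤ Subgroup.centralizer (Subgroup.zpowers u : Set G) := by
      rw [Subgroup.zpowers_le, Subgroup.mem_centralizer_iff]
      intro h hh
      obtain ⟨k, rfl⟩ := Subgroup.mem_zpowers_iff.1 hh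
      exact ((Commute.refl u).zpow_left k).eq
    have hA : E ⊔ Subgroup.zpowers u ≤
        Subgroup.centralizer ((E ⊔ Subgroup.zpowers u : Subgroup G) : Set G) := by
      refine sup_le ?_ ?_
      · rw [Subgroup.le_centralizer_iff]
        exact sup_le hEc hZE
      · rw [Subgroup.le_centralizer_iff]
        exact sup_le (Subgroup.le_centralizer_iff.1 hZE) hZZ
    have hle : E ⊔ Subgroup.zpowers u ≤ E :=
      hmax.le_of_ge ⟨sup_le hER (by rwa [Subgroup.zpowers_le]), hA⟩ le_sup_left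
    exact hle (Subgroup.mem_sup_right (Subgroup.mem_zpowers u))

theorem act_mul (g h : GL ι F) (w : ι → F) :
    ((g * h : GL ι F) : Matrix ι ι F) *ᵥ w = (g : Matrix ι ι F) *ᵥ ((h : Matrix ι ι F) *ᵥ w) := by
  rw [Units.val_mul, Matrix.mulVec_mulVec]

theorem act_ne_zero (g : GL ι F) {w : ι → F} (hw : w ≠ 0) : (g : Matrix ι ι F) *ᵥ w ≠ 0 := by
  intro h
  apply hw
  have : ((g⁻¹ * g : GL ι F) : Matrix ι ι F) *ᵥ w = 0 := by
    rw [act_mul, h, Matrix.mulVec_zero]
  rwa [inv_mul_cancel, Units.val_one, Matrix.one_mulVec] at this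

theorem act_pow (g : GL ι F) {w : ι → F} {ν : F} (h : (g : Matrix ι ι F) *ᵥ w = ν • w) (n : ℕ) :
    ((g ^ n : GL ι F) : Matrix ι ι F) *ᵥ w = ν ^ n • w := by
  induction n with
  | zero => simp
  | succ n ih =>
    rw [pow_succ, act_mul, h, Matrix.mulVec_smul, ih, smul_smul, pow_succ, mul_comm]

/-- L11 -/
theorem monomial_realisable [Finite F] (R : Subgroup (GL ι F))
    (hcomm : ∀ x ∈ R, ∀ y ∈ R, x * y * x⁻¹ * y⁻¹ ∈ scalars ι F) (henv : env R = ⊤)
    (z : ℕ) (hz : ∀ x ∈ R, x ^ z = 1) (F₀ : Subfield F)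
    (hroots : ∀ c : F, c ^ z = 1 → c ∈ F₀) (hsplit : ∃ ζ : F, IsPrimitiveRoot ζ z) :
    RealisableOver F₀ (matrixSet R) := by
  classical
  rcases isEmpty_or_nonempty ι with hι | hι
  · exact ⟨1, fun s _ i => (hι.false i).elim⟩
  rcases Nat.eq_zero_or_pos z with rfl | hz0
  · exact ⟨1, fun s _ i j => hroots _ (pow_zero _)⟩
  obtain ⟨ζ, hζ⟩ := hsplit
  obtain ⟨E, hER, hEc, hEmax⟩ := exists_max_abelian R
  have hfin : Fintype (GL ι F) := Fintype.ofFinite _
  obtain ⟨v, hv0, hv⟩ := exists_common_eigenvector hz0 hζ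
    ((Finset.univ.filter (fun g : GL ι F => g ∈ E)).image (fun g : GL ι F => (g : Matrix ι ι F)))
    (by
      intro x hx y hy
      obtain ⟨a, ha, rfl⟩ := Finset.mem_image.1 hx
      obtain ⟨c, hc, rfl⟩ := Finset.mem_image.1 hy
      rw [← Units.val_mul, ← Units.val_mul, hEc a (Finset.mem_filter.1 ha).2 c (Finset.mem_filter.1 hc).2])
    (by
      intro x hx
      obtain ⟨a, ha, rfl⟩ := Finset.mem_image.1 hx
      rw [← Units.val_pow_eq_pow_val, hz a (hER (Finset.mem_filter.1 ha).2), Units.val_one])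
  have hvE : ∀ e ∈ E, ∃ μ : F, (e : Matrix ι ι F) *ᵥ v = μ • v := by
    intro e he
    exact hv _ (Finset.mem_image.2 ⟨e, Finset.mem_filter.2 ⟨Finset.mem_univ _, he⟩, rfl⟩)
  have hscal : ∀ c ∈ scalars ι F, ∃ l : F, ∀ w : ι → F, (c : Matrix ι ι F) *ᵥ w = l • w := by
    intro c hc
    obtain ⟨l, hl⟩ := (mem_scalars_iff c).1 hc
    exact ⟨l, fun w => by rw [hl, Matrix.smul_mulVec, Matrix.one_mulVec]⟩
  set Ω : Set (ι → F) := {w | ∃ s ∈ R, w = (s : Matrix ι ι F) *ᵥ v} with hΩ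
  have hΩ0 : ∀ w ∈ Ω, w ≠ 0 := by
    rintro _ ⟨s, -, rfl⟩
    exact act_ne_zero s hv0
  have hΩE : ∀ w ∈ Ω, ∀ e ∈ E, ∃ μ : F, (e : Matrix ι ι F) *ᵥ w = μ • w := by
    rintro _ ⟨s, hs, rfl⟩ e he
    obtain ⟨μ, hμ⟩ := hvE e he
    obtain ⟨l, hl⟩ := hscal _ (hcomm s⁻¹ (inv_mem hs) e (hER he))
    have hrel : e * s = s * ((s⁻¹ * e * s⁻¹⁻¹ * e⁻¹) * e) := by group
    refine ⟨l * μ, ?_⟩
    rw [← act_mul, hrel, act_mul, act_mul, hμ, hl, smul_smul, Matrix.mulVec_smul]
  have hΩR : ∀ w ∈ Ω, ∀ x ∈ R, (x : Matrix ι ι F) *ᵥ w ∈ Ω := by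
    rintro _ ⟨s, hs, rfl⟩ x hx
    exact ⟨x * s, mul_mem hx hs, (act_mul x s v).symm⟩
  have hspan : Submodule.span F Ω = ⊤ := by
    have hirr := (Cfsg.Agent.Lib.Helper96.Asch.absIrr_of_env_top henv).1
    rcases hirr (Submodule.span F Ω) (by
      rintro _ ⟨x, hx, rfl⟩
      rw [Submodule.map_span_le]
      intro w hw
      rw [Matrix.toLin'_apply]
      exact Submodule.subset_span (hΩR w hw x hx)) with h | h
    · exfalso
      apply hv0
      have : v ∈ Submodule.span F Ω := Submodule.subset_span ⟨1, one_mem _, by simp⟩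
      rwa [h, Submodule.mem_bot] at this
    · exact h
  choose! μE hμE using hΩE
  obtain ⟨𝔅, h𝔅Ω, h𝔅span, h𝔅li⟩ := exists_linearIndependent F Ω
  let b : Module.Basis ↥𝔅 F (ι → F) := Module.Basis.mk h𝔅li (by
    rw [Subtype.range_coe, h𝔅span, hspan])
  have hb : ∀ β : ↥𝔅, b β = (β : ι → F) := fun β => by simp [b]
  have key : ∀ x ∈ R, ∀ β : ↥𝔅, ∃ (β' : ↥𝔅) (c : F), c ∈ F₀ ∧
      (x : Matrix ι ι F) *ᵥ (β : ι → F) = c • (β' : ι → F) := by
    intro x hx β
    set y := (x : Matrix ι ι F) *ᵥ (β : ι → F) with hy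
    have hyΩ : y ∈ Ω := hΩR _ (h𝔅Ω β.2) x hx
    have hy0 : y ≠ 0 := hΩ0 y hyΩ
    obtain ⟨β', hβ'⟩ : ∃ β' : ↥𝔅, b.repr y β' ≠ 0 := by
      by_contra h
      push Not at h
      apply hy0
      have : b.repr y = 0 := Finsupp.ext h
      simpa using this
    have hβ'Ω : (β' : ι → F) ∈ Ω := h𝔅Ω β'.2
    have heq : ∀ e ∈ E, μE y e = μE (β' : ι → F) e := by
      intro e he
      have h1 : (b.coord β') ∘ₗ (Matrix.toLin' (e : Matrix ι ι F)) =
          μE (β' : ι → F) e • b.coord β' := by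
        apply b.ext
        intro β''
        rw [LinearMap.comp_apply, Matrix.toLin'_apply, hb, hμE _ (h𝔅Ω β''.2) e he, map_smul,
          LinearMap.smul_apply, ← hb β'', Module.Basis.coord_apply, Module.Basis.repr_self,
          smul_eq_mul, smul_eq_mul]
        by_cases hββ : β'' = β'
        · subst hββ; rw [hb]
        · rw [Finsupp.single_eq_of_ne (Ne.symm hββ), mul_zero, mul_zero]
      have h2 := LinearMap.congr_fun h1 y
      rw [LinearMap.comp_apply, Matrix.toLin'_apply, hμE y hyΩ e he, map_smul,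
        LinearMap.smul_apply, Module.Basis.coord_apply, smul_eq_mul, smul_eq_mul] at h2
      exact mul_right_cancel₀ hβ' h2
    obtain ⟨s, hs, hys⟩ := hyΩ
    obtain ⟨t', ht', hβt'⟩ := hβ'Ω
    set u := t' * s⁻¹ with hu
    have huR : u ∈ R := mul_mem ht' (inv_mem hs)
    have huy : (u : Matrix ι ι F) *ᵥ y = (β' : ι → F) := by
      rw [hys, ← act_mul, hu, inv_mul_cancel_right, ← hβt']
    have hyΩ' : y ∈ Ω := ⟨s, hs, hys⟩
    have huE : u ∈ E := by
      apply hEmax u huR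
      intro e he
      obtain ⟨l, hl⟩ := (mem_scalars_iff _).1 (hcomm u huR e (hER he))
      have hrel : (u * e * u⁻¹ * e⁻¹) * (e * u) = u * e := by group
      have h1 : ((u * e * u⁻¹ * e⁻¹ : GL ι F) : Matrix ι ι F) *ᵥ
          ((e : Matrix ι ι F) *ᵥ ((u : Matrix ι ι F) *ᵥ y)) =
          (u : Matrix ι ι F) *ᵥ ((e : Matrix ι ι F) *ᵥ y) := by
        rw [← act_mul e u, ← act_mul, hrel, act_mul]
      rw [huy, hμE _ (h𝔅Ω β'.2) e he, hμE y hyΩ' e he, Matrix.mulVec_smul, Matrix.mulVec_smul, huy,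
        hl, Matrix.smul_mulVec, Matrix.one_mulVec, heq e he, smul_smul] at h1
      have hμ0 : μE (β' : ι → F) e ≠ 0 := by
        intro h0
        have := hμE _ (h𝔅Ω β'.2) e he
        rw [h0, zero_smul] at this
        exact act_ne_zero e (hΩ0 _ (h𝔅Ω β'.2)) this
      have hl1 : (l : F) = 1 := by
        have h2 : (μE (β' : ι → F) e * (l : F) - μE (β' : ι → F) e) • (β' : ι → F) = 0 := by
          rw [sub_smul, h1, sub_self]
        rcases smul_eq_zero.1 h2 with h3 | h3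
        · have h4 : μE (β' : ι → F) e * (l : F) = μE (β' : ι → F) e * 1 := by
            rw [mul_one]; exact sub_eq_zero.1 h3
          exact mul_left_cancel₀ hμ0 h4
        · exact absurd h3 (hΩ0 _ (h𝔅Ω β'.2))
      have hc1 : u * e * u⁻¹ * e⁻¹ = 1 := by
        apply Units.ext
        rw [hl, hl1, one_smul, Units.val_one]
      calc u * e = (u * e * u⁻¹ * e⁻¹) * (e * u) := hrel.symm
        _ = e * u := by rw [hc1, one_mul]
    set ν := μE y u with hν
    have hνy : (u : Matrix ι ι F) *ᵥ y = ν • y := hμE y hyΩ' u huE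
    have hνz : ν ^ z = 1 := by
      have h1 := act_pow u hνy z
      rw [hz u huR, Units.val_one, Matrix.one_mulVec] at h1
      have h2 : (ν ^ z - 1) • y = 0 := by rw [sub_smul, one_smul, ← h1, sub_self]
      rcases smul_eq_zero.1 h2 with h3 | h3
      · exact sub_eq_zero.1 h3
      · exact absurd h3 hy0
    have hν0 : ν ≠ 0 := by
      intro h0
      rw [h0, zero_pow hz0.ne'] at hνz
      exact zero_ne_one hνz
    refine ⟨β', ν⁻¹, hroots _ (by rw [inv_pow, hνz, inv_one]), ?_⟩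
    rw [← huy, hνy, smul_smul, inv_mul_cancel₀ hν0, one_smul]
  have hfin𝔅 : Fintype ↥𝔅 := Fintype.ofFinite _
  have hcard : Fintype.card ↥𝔅 = Fintype.card ι := by
    rw [← Module.finrank_eq_card_basis b, Module.finrank_fintype_fun_eq_card]
  let ε : ι ≃ ↥𝔅 := (Fintype.equivOfCardEq hcard).symm
  let b' : Module.Basis ι F (ι → F) := b.reindex ε.symm
  have hb' : ∀ j, b' j = ((ε j : ↥𝔅) : ι → F) := fun j => by simp [b', hb]
  let B : GL ι F := ⟨b'.toMatrix (Pi.basisFun F ι), (Pi.basisFun F ι).toMatrix b',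
    Module.Basis.toMatrix_mul_toMatrix_flip _ _, Module.Basis.toMatrix_mul_toMatrix_flip _ _⟩
  refine ⟨B, ?_⟩
  rintro _ ⟨x, hx, rfl⟩ i j
  have h1 : (B : Matrix ι ι F) * (x : Matrix ι ι F) * ((B⁻¹ : GL ι F) : Matrix ι ι F) =
      LinearMap.toMatrix b' b' (Matrix.toLin' (x : Matrix ι ι F)) := by
    rw [← basis_toMatrix_mul_linearMap_toMatrix_mul_basis_toMatrix b' (Pi.basisFun F ι) b'
      (Pi.basisFun F ι), LinearMap.toMatrix_eq_toMatrix', LinearMap.toMatrix'_toLin']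
    rfl
  rw [h1, LinearMap.toMatrix_apply, Matrix.toLin'_apply, hb']
  obtain ⟨β', c, hc, hxc⟩ := key x hx (ε j)
  rw [hxc, map_smul]
  have h2 : (β' : ι → F) = b' (ε.symm β') := by rw [hb', Equiv.apply_symm_apply]
  rw [h2, Module.Basis.repr_self, Finsupp.smul_apply, smul_eq_mul]
  by_cases hi : ε.symm β' = i
  · rw [hi, Finsupp.single_eq_same, mul_one]; exact hc
  · rw [Finsupp.single_eq_of_ne (Ne.symm hi), mul_zero]; exact F₀.zero_mem

end Cfsg.Agent.Lib.Helper58.Asch
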