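import Cfsg.Agent.Lib.Helper13.Asch.Defs

set_option autoImplicit false

namespace Cfsg.Agent.Lib.Helper58.Asch

open Cfsg Cfsg.Geo Matrix Cfsg.Agent.Lib.Helper13.Asch
open scoped Kronecker MatrixGroups

variable {ι : Type} [Fintype ι] [DecidableEq ι] {F : Type*} [Field F]

/-- D0 -/
theorem eq_inf_of_maximal {H M : Subgroup (GL ι F)} (hH : IsMaximalIn (specialLinear ι F) H)
    (hHM : H ≤ M) (hM : ¬ specialLinear ι F ≤ M) : H = M ⊓ specialLinear ι F := by
  rcases hH.2 (M ⊓ specialLinear ι F) (le_inf hHM hH.1.le) inf_le_right with h | h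
  · exact h.symm
  · exact absurd (h ▸ inf_le_left) hM

/-- the transvection `x ↦ x + φ x • v` -/
theorem exists_transvection (φ : (ι → F) →ₗ[F] F) (v : ι → F) (h : φ v = 0) :
    ∃ g ∈ specialLinear ι F, ∀ x, (g : Matrix ι ι F) *ᵥ x = x + φ x • v := by
  set c : ι → F := fun j => φ (Pi.single j 1) with hc
  have hφ : ∀ x, φ x = c ⬝ᵥ x := by
    intro x
    rw [LinearMap.pi_apply_eq_sum_univ φ x, dotProduct]
    refine Finset.sum_congr rfl ?_
    intro i _
    rw [smul_eq_mul, mul_comm]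
    congr 2
    funext j
    rw [Pi.single_apply]
    simp [eq_comm]
  have hdet : (1 + vecMulVec v c).det = 1 := by
    rw [vecMulVec_eq Unit, det_one_add_replicateCol_mul_replicateRow, ← hφ, h, add_zero]
  refine ⟨Matrix.GeneralLinearGroup.mk'' (1 + vecMulVec v c) (by rw [hdet]; exact isUnit_one),
    ?_, ?_⟩
  · show Matrix.GeneralLinearGroup.det _ = 1
    apply Units.ext
    exact hdet
  · intro x
    show (1 + vecMulVec v c) *ᵥ x = _
    rw [Matrix.add_mulVec, Matrix.one_mulVec, vecMulVec_mulVec, ← hφ, op_smul_eq_smul]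

omit [Fintype ι] [DecidableEq ι] in
theorem exists_functional {p : Submodule F (ι → F)} {w : ι → F} (hw : w ∉ p) :
    ∃ φ : (ι → F) →ₗ[F] F, φ w = 1 ∧ ∀ x ∈ p, φ x = 0 := by
  obtain ⟨f, hfw, hpf⟩ := Submodule.exists_le_ker_of_notMem hw
  refine ⟨(f w)⁻¹ • f, ?_, ?_⟩
  · simp [hfw]
  · intro x hx
    have : f x = 0 := hpf hx
    simp [this]

/-- D1a -/
theorem sl_not_le_stab (W : Submodule F (ι → F)) (h0 : W ≠ ⊥) (h1 : W ≠ ⊤) :
    ¬ specialLinear ι F ≤ subspaceStabilizer W := by
  intro hle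
  obtain ⟨w, hwW, hw0⟩ := Submodule.exists_mem_ne_zero_of_ne_bot h0
  obtain ⟨v, hv⟩ : ∃ v, v ∉ W := by
    by_contra h
    push Not at h
    exact h1 (eq_top_iff.2 fun x _ => h x)
  have hwv : w ∉ Submodule.span F {v} := by
    intro h
    obtain ⟨a, rfl⟩ := Submodule.mem_span_singleton.1 h
    have ha : a ≠ 0 := by
      rintro rfl
      exact hw0 (zero_smul _ _)
    apply hv
    have := W.smul_mem a⁻¹ hwW
    rwa [smul_smul, inv_mul_cancel₀ ha, one_smul] at this
  obtain ⟨φ, hφw, hφ⟩ := exists_functional hwv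
  obtain ⟨g, hg, hgx⟩ := exists_transvection φ v (hφ v (Submodule.mem_span_singleton_self v))
  have h2 : (g : Matrix ι ι F) *ᵥ w ∈ W := ((hle hg) w).1 hwW
  rw [hgx, hφw, one_smul] at h2
  exact hv ((W.add_mem_iff_right hwW).1 h2)

/-- D1b -/
theorem sl_not_le_decomp {t m : ℕ} (D : Fin t → Submodule F (ι → F)) (hD : IsMDecomposition m D) :
    ¬ specialLinear ι F ≤ decompositionStabilizer D := by
  intro hle
  have ht := hD.two_le
  let i0 : Fin t := ⟨0, by omega⟩
  let i1 : Fin t := ⟨1, by omega⟩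
  have h01 : i1 ≠ i0 := by
    intro h
    have := congrArg Fin.val h
    simp [i0, i1] at this
  have hne : ∀ i, D i ≠ ⊥ := by
    intro i h
    have := hD.finrank_eq i
    rw [h, finrank_bot] at this
    have := hD.pos
    omega
  obtain ⟨u, huD, hu0⟩ := Submodule.exists_mem_ne_zero_of_ne_bot (hne i0)
  obtain ⟨w, hwD, hw0⟩ := Submodule.exists_mem_ne_zero_of_ne_bot (hne i1)
  set C := ⨆ (j : Fin t) (_ : j ≠ i0), D j with hC
  have hdisj : Disjoint (D i0) C := hD.indep i0
  have huC : u ∉ C := fun h => hu0 ((Submodule.disjoint_def.1 hdisj) u huD h)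
  have hwC : w ∈ C := (le_iSup₂_of_le i1 h01 le_rfl : D i1 ≤ C) hwD
  obtain ⟨φ, hφu, hφ⟩ := exists_functional huC
  obtain ⟨g, hg, hgx⟩ := exists_transvection φ w (hφ w hwC)
  obtain ⟨σ, hσ⟩ := hle hg
  have hinj : Function.Injective D := hD.indep.injective hne
  have hfix : ∀ k, k ≠ i0 → σ k = k := by
    intro k hk
    apply hinj
    rw [← hσ k]
    ext x
    constructor
    · rintro ⟨y, hy, rfl⟩
      have hyC : y ∈ C := (le_iSup₂_of_le k hk le_rfl : D k ≤ C) hy
      rw [Matrix.toLin'_apply, hgx, hφ y hyC, zero_smul, add_zero]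
      exact hy
    · intro hx
      have hxC : x ∈ C := (le_iSup₂_of_le k hk le_rfl : D k ≤ C) hx
      refine ⟨x, hx, ?_⟩
      rw [Matrix.toLin'_apply, hgx, hφ x hxC, zero_smul, add_zero]
  have hσ0 : σ i0 = i0 := by
    by_contra h
    have := hfix (σ i0) h
    exact h (σ.injective this)
  have h3 : (g : Matrix ι ι F) *ᵥ u ∈ D i0 := by
    have : Matrix.toLin' (g : Matrix ι ι F) u ∈ (D i0).map (Matrix.toLin' (g : Matrix ι ι F)) :=
      Submodule.mem_map_of_mem huD
    rw [hσ i0, hσ0, Matrix.toLin'_apply] at this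
    exact this
  rw [hgx, hφu, one_smul] at h3
  have hw' : w ∈ D i0 := ((D i0).add_mem_iff_right huD).1 h3
  exact hw0 ((Submodule.disjoint_def.1 hdisj) w hw' hwC)

/-- D1h -/
theorem sl_not_le_sim (hι : 3 ≤ Fintype.card ι) (f : (ι → F) → (ι → F) → F)
    (hadd : ∀ x y v, f (x + y) v = f x v + f y v) (hnd : IsNondegenerateForm f) :
    ¬ specialLinear ι F ≤ similarityGroup f := by
  intro hle
  have hfr : Module.finrank F (ι → F) = Fintype.card ι := Module.finrank_fintype_fun_eq_card F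
  have hnt : Nontrivial (ι → F) := Module.nontrivial_of_finrank_pos (R := F) (by omega)
  obtain ⟨w, hw0⟩ := exists_ne (0 : ι → F)
  obtain ⟨v, hwv⟩ := (hnd w hw0).2
  have hlt : Submodule.span F {w, v} < ⊤ := by
    rw [lt_top_iff_ne_top]
    intro h
    have h1 : Module.finrank F (Submodule.span F ({w, v} : Set (ι → F))) ≤ 2 := by
      classical
      have h2 := finrank_span_finset_le_card (R := F) ({w, v} : Finset (ι → F))
      have h3 : ({w, v} : Finset (ι → F)).card ≤ 2 := Finset.card_le_two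
      have h4 : ((({w, v} : Finset (ι → F)) : Set (ι → F))) = {w, v} := by simp
      rw [h4] at h2
      unfold Set.finrank at h2
      omega
    rw [h, finrank_top, hfr] at h1
    omega
  obtain ⟨u, -, hu⟩ := SetLike.exists_of_lt hlt
  obtain ⟨φ, hφu, hφ⟩ := exists_functional hu
  have hφw : φ w = 0 := hφ w (Submodule.subset_span (by simp))
  have hφv : φ v = 0 := hφ v (Submodule.subset_span (by simp))
  obtain ⟨g, hg, hgx⟩ := exists_transvection φ w hφw
  obtain ⟨c, hc⟩ := hle hg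
  have h1 := hc w v
  rw [hgx, hgx, hφw, hφv, zero_smul, add_zero, add_zero] at h1
  have hc1 : (c : F) = 1 := by
    have : (c : F) * f w v = 1 * f w v := by rw [one_mul]; exact h1.symm
    exact mul_right_cancel₀ hwv this
  have h2 := hc u v
  rw [hgx, hgx, hφu, hφv, zero_smul, add_zero, one_smul, hadd, hc1, one_mul] at h2
  exact hwv (by simpa using h2)

/-- D1i -/
theorem sl_not_le_quadSim (hι : 3 ≤ Fintype.card ι) (Q : (ι → F) → F)
    (hQ : IsNondegenerateQuadraticForm Q) : ¬ specialLinear ι F ≤ quadSimilarityGroup Q := by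
  intro hle
  refine sl_not_le_sim hι (QuadraticMap.polar Q) hQ.polar_bilinear.add_left hQ.nondegenerate ?_
  refine hle.trans ?_
  rintro g ⟨c, hc⟩
  refine ⟨c, fun u v => ?_⟩
  unfold QuadraticMap.polar
  rw [← Matrix.mulVec_add, hc, hc, hc]
  ring

/-- D1e -/
theorem sl_not_le_subfield (hι : 2 ≤ Fintype.card ι) (F₀ : Subfield F) (hF₀ : F₀ ≠ ⊤) (P : GL ι F) :
    ¬ specialLinear ι F ≤ subfieldSubgroup F₀ P := by
  intro hle
  obtain ⟨t, ht⟩ : ∃ t, t ∉ F₀ := by
    by_contra h
    push Not at h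
    exact hF₀ (eq_top_iff.2 fun x _ => h x)
  obtain ⟨i, j, hij⟩ := Fintype.exists_pair_of_one_lt_card (α := ι) (by omega)
  have hdet : (Matrix.transvection i j t).det = 1 := Matrix.det_transvection_of_ne i j hij t
  set τ : GL ι F := Matrix.GeneralLinearGroup.mk'' (Matrix.transvection i j t)
    (by rw [hdet]; exact isUnit_one) with hτ
  have hτSL : τ ∈ specialLinear ι F := by
    show Matrix.GeneralLinearGroup.det _ = 1
    apply Units.ext
    exact hdet
  have hnorm : (specialLinear ι F).Normal := by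
    unfold specialLinear
    infer_instance
  have h1 : P * τ * P⁻¹ ∈ subfieldSubgroup F₀ P := hle (hnorm.conj_mem τ hτSL P)
  obtain ⟨y, hy, hyτ⟩ := h1
  have hyτ' : y = τ := by
    have : P * y * P⁻¹ = P * τ * P⁻¹ := hyτ
    exact mul_left_cancel (mul_right_cancel this)
  rw [hyτ'] at hy
  obtain ⟨g0, ⟨g, rfl⟩, s, hs, hgs⟩ := Subgroup.mem_sup_of_normal_right.1 hy
  obtain ⟨c, hc⟩ := (mem_scalars_iff s).1 hs
  have hmat : ∀ a b, (Matrix.transvection i j t) a b = ((g : Matrix ι ι F₀) a b : F) * c := by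
    intro a b
    have h2 : (τ : Matrix ι ι F) = ((Matrix.GeneralLinearGroup.map (F₀.subtype : F₀ →+* F) g : GL ι F) :
        Matrix ι ι F) * (s : Matrix ι ι F) := by
      rw [← Units.val_mul, hgs]
    have h3 : (τ : Matrix ι ι F) = Matrix.transvection i j t := rfl
    rw [← h3, h2, hc, Matrix.mul_smul, mul_one, Matrix.smul_apply, smul_eq_mul, mul_comm]
    rfl
  have hii := hmat i i
  have hij' := hmat i j
  simp only [Matrix.transvection, Matrix.add_apply, Matrix.one_apply_eq, Matrix.one_apply_ne hij,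
    Matrix.single_apply_same, zero_add] at hii hij'
  rw [Matrix.single_apply_of_ne _ _ _ _ _ (by
    rintro ⟨-, h⟩
    exact hij h.symm), add_zero] at hii
  have hcF : (c : F) ∈ F₀ := by
    have h4 : (c : F) = (((g : Matrix ι ι F₀) i i : F₀) : F)⁻¹ := by
      rw [eq_comm, inv_eq_iff_eq_inv]
      exact eq_inv_of_mul_eq_one_left hii.symm
    rw [h4]
    exact F₀.inv_mem (SetLike.coe_mem _)
  apply ht
  rw [hij']
  exact F₀.mul_mem (SetLike.coe_mem _) hcF

end Cfsg.Agent.Lib.Helper58.Asch
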