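import Cfsg.Agent.Lib.Helper13.Asch.Defs

set_option autoImplicit false

namespace Cfsg.Agent.Lib.Helper58.Asch

open Cfsg Cfsg.Geo Matrix Cfsg.Agent.Lib.Helper13.Asch
open scoped Kronecker MatrixGroups

variable {ι : Type} [Fintype ι] [DecidableEq ι] {F : Type*} [Field F]

theorem single_mulVec_eq_zero (i j : ι) (c : F) (x : ι → F) (hx : x j = 0) :
    Matrix.single i j c *ᵥ x = 0 := by
  ext a
  rw [Matrix.mulVec, dotProduct]
  apply Finset.sum_eq_zero
  intro b _
  by_cases hb : b = j
  · subst hb; rw [hx, mul_zero]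
  · rw [Matrix.single_apply_of_ne _ _ _ _ _ (by rintro ⟨-, h⟩; exact hb h.symm), zero_mul]

/-- D1c -/
theorem sl_not_le_field (hι : 3 ≤ Fintype.card ι) {r : ℕ} (hr : r.Prime)
    (K : Subalgebra F (Matrix ι ι F)) (hK : IsFieldSubalgebra r K) :
    ¬ specialLinear ι F ≤ subalgebraNormalizer K := by
  intro hle
  have hne : Nonempty ι := Fintype.card_pos_iff.1 (by omega)
  have hscal : ∀ k ∈ K, k ∈ Set.range (Matrix.scalar ι : F → Matrix ι ι F) := by
    intro k hk
    apply Matrix.mem_range_scalar_of_commute_transvectionStruct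
    rintro ⟨i, j, hij, c⟩
    show Commute (Matrix.transvection i j c) k
    have hdet : (Matrix.transvection i j c).det = 1 := Matrix.det_transvection_of_ne i j hij c
    set g : GL ι F := Matrix.GeneralLinearGroup.mk'' (Matrix.transvection i j c)
      (by rw [hdet]; exact isUnit_one) with hg
    have hgSL : g ∈ specialLinear ι F := by
      show Matrix.GeneralLinearGroup.det _ = 1
      apply Units.ext
      exact hdet
    have hgm : (g : Matrix ι ι F) = 1 + Matrix.single i j c := rfl
    set N := Matrix.single i j c with hN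
    set k' := (g : Matrix ι ι F) * k * ((g⁻¹ : GL ι F) : Matrix ι ι F) with hk'
    have hk'K : k' ∈ K := ((hle hgSL) k).1 hk
    have h2 : ((g⁻¹ : GL ι F) : Matrix ι ι F) * (g : Matrix ι ι F) = 1 := by
      rw [← Units.val_mul, inv_mul_cancel, Units.val_one]
    have hrel : k' * (g : Matrix ι ι F) = (g : Matrix ι ι F) * k := by
      rw [hk', mul_assoc, h2, mul_one]
    have hd : k - k' = k' * N - N * k := by
      rw [hgm, mul_add, add_mul, mul_one, one_mul] at hrel
      have : k' * N = k + N * k - k' := by rw [← hrel]; abel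
      rw [this]; abel
    have hkk : k' = k := by
      by_contra hne'
      have hd0 : k - k' ≠ 0 := fun h => hne' (sub_eq_zero.1 h).symm
      obtain ⟨y, hy, hdy⟩ := hK.inv (k - k') (K.sub_mem hk hk'K) hd0
      have hyd : y * (k - k') = 1 := by rw [hK.comm y hy _ (K.sub_mem hk hk'K)]; exact hdy
      let L : (ι → F) →ₗ[F] F × F :=
        (LinearMap.proj j).prod ((LinearMap.proj j).comp (Matrix.toLin' k))
      have hker : LinearMap.ker L ≠ ⊥ := by
        apply LinearMap.ker_ne_bot_of_finrank_lt
        rw [Module.finrank_prod, Module.finrank_self, Module.finrank_fintype_fun_eq_card]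
        omega
      obtain ⟨x, hxL, hx0⟩ := Submodule.exists_mem_ne_zero_of_ne_bot hker
      have hxL' : L x = 0 := hxL
      have hx1 : x j = 0 := congrArg Prod.fst hxL'
      have hx2 : (k *ᵥ x) j = 0 := by
        have := congrArg Prod.snd hxL'
        simpa [L] using this
      have h3 : (k - k') *ᵥ x = 0 := by
        have e1 : (k' * N) *ᵥ x = 0 := by
          rw [← Matrix.mulVec_mulVec, hN, single_mulVec_eq_zero i j c x hx1, Matrix.mulVec_zero]
        have e2 : (N * k) *ᵥ x = 0 := by
          rw [← Matrix.mulVec_mulVec, hN, single_mulVec_eq_zero i j c _ hx2]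
        rw [hd, Matrix.sub_mulVec, e1, e2, sub_zero]
      apply hx0
      have h4 : (y * (k - k')) *ᵥ x = x := by rw [hyd, Matrix.one_mulVec]
      rw [← h4, ← Matrix.mulVec_mulVec, h3, Matrix.mulVec_zero]
    show (g : Matrix ι ι F) * k = k * (g : Matrix ι ι F)
    rw [← hrel, hkk]
  have hbot : K = ⊥ := by
    rw [eq_bot_iff]
    intro k hk
    obtain ⟨c, hc⟩ := hscal k hk
    rw [Algebra.mem_bot]
    exact ⟨c, hc⟩
  have h1 := hK.finrank_eq
  rw [hbot, Subalgebra.finrank_bot] at h1
  exact hr.one_lt.ne h1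

end Cfsg.Agent.Lib.Helper58.Asch
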